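import Cfsg.Agent.SectRank.Main

/-!
Consequences of Harada's theorem for 2-groups containing a self-centralising `Q₈ ∗ Q₈`, or the
wreath product of a four group by an involution with self-centralising centre.
-/

set_option autoImplicit false

namespace CfsgLib.SectRank

universe u

variable {S : Type u} [Group S]

/-- A four group extended by a commuting involution. -/
theorem selfEight_sup [Finite S] {B : Subgroup S} (hB4 : Nat.card B = 4)
    (hB2 : ∀ b ∈ B, b ^ 2 = 1) {a : S} (ha2 : a ^ 2 = 1) (haB : a ∉ B)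
    (hcomm : ∀ b ∈ B, a * b = b * a)
    (hself : ∀ g, g * a = a * g → (∀ b ∈ B, g * b = b * g) → g ∈ B ⊔ Subgroup.zpowers a) :
    SelfEight (B ⊔ Subgroup.zpowers a) := by
  have hn : ∀ b ∈ B, a * b * a⁻¹ ∈ B := fun b hb => by
    rw [hcomm b hb, mul_inv_cancel_right]; exact hb
  have haB2 : a ^ 2 ∈ B := by rw [ha2]; exact one_mem B
  have hsq : ∀ b ∈ B ⊔ Subgroup.zpowers a, b ^ 2 = 1 := fun b hb => by
    rcases mem_sup_zpowers haB2 hn hb with h | h
    · exact hB2 b h
    · have e : b = b * a⁻¹ * a := by group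
      rw [e, Commute.mul_pow (hcomm _ h).symm, hB2 _ h, ha2, one_mul]
  have haA : a ∈ B ⊔ Subgroup.zpowers a := Subgroup.mem_sup_right (Subgroup.mem_zpowers a)
  refine ⟨hsq, le_antisymm ((card_sup_zpowers_le haB2 hn).trans (by omega)) ?_,
    le_antisymm (fun g hg => ?_) fun g hg =>
      Subgroup.mem_centralizer_iff.2 fun b hb => mul_comm_of_sq hsq b hb g hg⟩
  · have : 2 * Nat.card B ≤ Nat.card ↥(B ⊔ Subgroup.zpowers a) :=
      two_mul_card_le le_sup_left haA haB
    omega
  · exact hself g (Subgroup.mem_centralizer_iff.1 hg a haA).symm fun b hb =>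
      (Subgroup.mem_centralizer_iff.1 hg b (Subgroup.mem_sup_left hb)).symm

/-- `(C₂ × C₂) ≀ C₂` with self-centralising centre yields a self-centralising elementary subgroup
of order eight. -/
theorem selfEight_of_wreath [Finite S] {Q E : Subgroup S} (hEQ : E ≤ Q)
    (hE2 : ∀ e ∈ E, e ^ 2 = 1) (hE16 : Nat.card E = 16) (hQ32 : Nat.card Q = 32) {s : S}
    (hsQ : s ∈ Q) (hsE : s ∉ E) (hs2 : s ^ 2 = 1)
    (hfix : Nat.card ↥(E ⊓ Subgroup.centralizer ({s} : Set S)) = 4)
    (hC : Subgroup.centralizer (((Subgroup.center Q).map Q.subtype : Subgroup S) : Set S) = Q) :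
    SelfEight (E ⊓ Subgroup.centralizer ({s} : Set S) ⊔ Subgroup.zpowers s) := by
  set B := E ⊓ Subgroup.centralizer ({s} : Set S) with hB
  have hEc := mul_comm_of_sq hE2
  have hcov : ∀ q ∈ Q, q ∉ E → q * s⁻¹ ∈ E := by
    intro q hq hqE
    set K := E.subgroupOf Q with hK
    have hK16 : Nat.card K = 16 := by
      rw [hK, Nat.card_congr (Subgroup.subgroupOfEquivOfLe hEQ).toEquiv, hE16]
    have hidx : K.index = 2 := by
      have := K.card_mul_index
      rw [hK16, hQ32] at this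
      omega
    exact (Subgroup.mul_mem_iff_of_index_two hidx (a := (⟨q, hq⟩ : Q))
      (b := (⟨s, hsQ⟩ : Q)⁻¹)).2 (iff_of_false hqE fun hh => hsE (inv_mem_iff.1 hh))
  have hEB : ¬ E ≤ B := fun hle => by
    have := Subgroup.card_le_of_le hle
    omega
  -- the centre lies in `B`
  have hZ : ((Subgroup.center Q).map Q.subtype : Subgroup S) ≤ B := by
    rintro _ ⟨⟨g, hgQ⟩, hg, rfl⟩
    have hgc : ∀ q ∈ Q, q * g = g * q := fun q hq =>
      congrArg Subtype.val (Subgroup.mem_center_iff.1 hg ⟨q, hq⟩)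
    refine ⟨?_, Subgroup.mem_centralizer_singleton_iff.2 (hgc s hsQ).symm⟩
    by_contra hgE
    refine hEB fun e he => ⟨he, Subgroup.mem_centralizer_singleton_iff.2 ?_⟩
    have hes : s = (g * s⁻¹)⁻¹ * g := by group
    have h1 : Commute e (g * s⁻¹) := hEc e he _ (hcov g hgQ hgE)
    have h2 : Commute e g := hgc e (hEQ he)
    show e * s = s * e
    rw [hes]
    exact (h1.inv_right.mul_right h2).eq
  refine selfEight_sup hfix (fun b hb => hE2 b hb.1) hs2 (fun h => hsE h.1)
    (fun b hb => (Subgroup.mem_centralizer_singleton_iff.1 hb.2).symm) fun g hgs hgB => ?_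
  have hgQ : g ∈ Q := by
    rw [← hC]
    exact Subgroup.mem_centralizer_iff.2 fun b hb => (hgB b (hZ hb)).symm
  by_cases hgE : g ∈ E
  · exact Subgroup.mem_sup_left ⟨hgE, Subgroup.mem_centralizer_singleton_iff.2 hgs⟩
  · have h1 : g * s⁻¹ ∈ B := ⟨hcov g hgQ hgE, Subgroup.mem_centralizer_singleton_iff.2
      ((Commute.mul_left (hgs : Commute g s) (Commute.refl s).inv_left)).eq⟩
    simpa using mul_mem (Subgroup.mem_sup_left (T := Subgroup.zpowers s) h1)
      (Subgroup.mem_sup_right (Subgroup.mem_zpowers s))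

section Quaternion

variable [Finite S]

/-- Without a normal four group through a central involution there is a cyclic normal subgroup
which is its own centraliser. -/
theorem exists_four_or_cyclic (hG : IsPGroup 2 S) {z : S} (hz : z ∈ Subgroup.center S)
    (hz1 : z ≠ 1) (hz2 : z ^ 2 = 1) :
    (∃ w : S, w ^ 2 = 1 ∧ w ≠ 1 ∧ w ≠ z ∧ (Subgroup.closure ({z, w} : Set S)).Normal) ∨
      ∃ y : S, (Subgroup.zpowers y).Normal ∧ z ∈ Subgroup.zpowers y ∧
        ∀ g, g * y = y * g → g ∈ Subgroup.zpowers y := by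
  have : Fact (Nat.Prime 2) := ⟨Nat.prime_two⟩
  have hzn := zpowers_normal_of_center hz
  obtain ⟨Y, hzY, hY⟩ := PGroup.exists_maximal_normal_abelian (A₀ := Subgroup.zpowers z)
    inferInstance
  have hYC := PGroup.centralizer_eq_of_maximal_normal_abelian hG hY
  have := hY.1.1
  have hYc : ∀ a ∈ Y, ∀ b ∈ Y, a * b = b * a := fun a ha b hb =>
    congrArg Subtype.val (isMulCommutative_iff.1 hY.1.2 ⟨a, ha⟩ ⟨b, hb⟩)
  by_cases hinv : ∀ i ∈ Y, i ^ 2 = 1 → i = 1 ∨ i = z
  · right
    obtain ⟨y, hy⟩ := (Subgroup.isCyclic_iff_exists_zpowers_eq_top Y).1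
      (isCyclic_of_comm hG hYc fun a ha b hb ha2 hb2 ha1 hb1 =>
        ((hinv a ha ha2).resolve_left ha1).trans ((hinv b hb hb2).resolve_left hb1).symm)
    refine ⟨y, hy ▸ inferInstance, hy ▸ hzY (Subgroup.mem_zpowers z), fun g hg => ?_⟩
    rw [hy, ← hYC]
    refine Subgroup.mem_centralizer_iff.2 fun b hb => ?_
    obtain ⟨i, rfl⟩ := Subgroup.mem_zpowers_iff.1 (hy ▸ hb : b ∈ Subgroup.zpowers y)
    exact (Commute.zpow_left (Commute.symm hg) i).eq
  left
  push Not at hinv
  obtain ⟨i, hiY, hi2, hi1, hiz⟩ := hinv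
  let M : Subgroup S :=
    { carrier := {y | y ∈ Y ∧ y ^ 2 = 1}
      one_mem' := ⟨one_mem Y, one_pow 2⟩
      mul_mem' := fun {a b} ha hb => ⟨mul_mem ha.1 hb.1, by
        rw [Commute.mul_pow (hYc a ha.1 b hb.1), ha.2, hb.2, one_mul]⟩
      inv_mem' := fun {a} ha => ⟨inv_mem ha.1, by rw [inv_pow, ha.2, inv_one]⟩ }
  have : M.Normal := ⟨fun a ha g => ⟨Subgroup.Normal.conj_mem inferInstance a ha.1 g, by
    rw [conj_pow, ha.2, mul_one, mul_inv_cancel]⟩⟩
  have hlt : Subgroup.zpowers z < M := by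
    refine lt_of_le_of_ne (Subgroup.zpowers_le.2 ⟨hzY (Subgroup.mem_zpowers z), hz2⟩) fun e => ?_
    rcases eq_one_or_eq_of_mem_zpowers hz2
      (e ▸ (⟨hiY, hi2⟩ : i ∈ M) : i ∈ Subgroup.zpowers z) with h | h
    exacts [hi1 h, hiz h]
  obtain ⟨q, hqM, hqz, hq2, hqc, -⟩ := exists_step (σ := MonoidHom.id S) hG (fun _ => rfl)
    (fun _ h => h) (fun _ h => h) hlt
  have heq : Subgroup.closure ({z, q} : Set S) = adjoin (Subgroup.zpowers z) q := by
    refine le_antisymm ((Subgroup.closure_le _).2 ?_) (adjoin_le hq2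
      (Subgroup.zpowers_le.2 (Subgroup.subset_closure (Or.inl rfl)))
      (Subgroup.subset_closure (Or.inr rfl)))
    rintro x (rfl | rfl)
    · exact le_adjoin _ _ (Subgroup.mem_zpowers x)
    · exact self_mem_adjoin _ _
  exact ⟨q, hqM.2, fun h => hqz (h ▸ one_mem _), fun h => hqz (h ▸ Subgroup.mem_zpowers _),
    heq ▸ adjoin_normal hq2 hqc⟩

/-- A subgroup of order 32 with squares and commutators in a central `⟨z⟩` has a normal four
group around it. -/
theorem exists_four_of_large (hG : IsPGroup 2 S) {z : S} (hz : z ∈ Subgroup.center S)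
    (hz1 : z ≠ 1) (hz2 : z ^ 2 = 1) {Q : Subgroup S} (hQ : 16 < Nat.card Q)
    (hsq : ∀ g ∈ Q, g ^ 2 = 1 ∨ g ^ 2 = z) :
    ∃ w : S, w ^ 2 = 1 ∧ w ≠ 1 ∧ w ≠ z ∧ (Subgroup.closure ({z, w} : Set S)).Normal := by
  refine (exists_four_or_cyclic hG hz hz1 hz2).resolve_right ?_
  rintro ⟨y, hyn, hzy, hcent⟩
  have hzc := Subgroup.mem_center_iff.1 hz
  have hy2 : y ^ 2 ≠ 1 := fun h => by
    have hyz : y = z := by
      rcases eq_or_ne y 1 with e | e
      · obtain ⟨i, hi⟩ := Subgroup.mem_zpowers_iff.1 hzy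
        rw [e, one_zpow] at hi
        exact absurd hi.symm hz1
      · exact eq_of_involutions_mem_zpowers hG (Subgroup.mem_zpowers y) hzy e hz1 h hz2
    have hle : Q ≤ Subgroup.zpowers y := fun g _ => hcent g (by rw [hyz]; exact hzc g)
    have h2 := Subgroup.card_le_of_le hle
    have h3 := card_zpowers_le_two h
    omega
  obtain ⟨m, hm2, hm4⟩ := exists_pow_order_four hG hy2
  set x := y ^ m with hx
  have hxy : x ∈ Subgroup.zpowers y := pow_mem (Subgroup.mem_zpowers y) m
  have hxz : x ^ 2 = z := eq_of_involutions_mem_zpowers hG (pow_mem hxy 2) hzy hm2 hz1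
    (by rw [← pow_mul]; exact hm4) hz2
  have hactx : ∀ a : S, a * x * a⁻¹ = x ∨ a * x * a⁻¹ = x * z := by
    intro a
    have hc : a * x * a⁻¹ ∈ Subgroup.zpowers y := hyn.conj_mem x hxy a
    have hd : x⁻¹ * (a * x * a⁻¹) ∈ Subgroup.zpowers y := mul_mem (inv_mem hxy) hc
    have hcomm : Commute x⁻¹ (a * x * a⁻¹) := by
      obtain ⟨i, hi⟩ := Subgroup.mem_zpowers_iff.1 hc
      obtain ⟨j, hj⟩ := Subgroup.mem_zpowers_iff.1 (inv_mem hxy)
      rw [← hi, ← hj]
      exact Commute.zpow_zpow_self y j i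
    have h2 : (x⁻¹ * (a * x * a⁻¹)) ^ 2 = 1 := by
      rw [hcomm.mul_pow, inv_pow, conj_pow, hxz, hzc a, mul_inv_cancel_right, inv_mul_cancel]
    rcases eq_or_ne (x⁻¹ * (a * x * a⁻¹)) 1 with e | e
    · exact Or.inl (inv_mul_eq_one.1 e).symm
    · exact Or.inr (inv_mul_eq_iff_eq_mul.1
        (eq_of_involutions_mem_zpowers hG hd hzy e hz1 h2 hz2))
  set Q₀ := Q ⊓ Subgroup.centralizer ({x} : Set S) with hQ₀
  have h1 : Nat.card Q ≤ 2 * Nat.card Q₀ := card_le_two_mul_card_inf fun a _ b _ ha hb => by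
    have hax := (hactx a).resolve_left fun e =>
      ha (Subgroup.mem_centralizer_singleton_iff.2 (mul_inv_eq_iff_eq_mul.1 e))
    have hbx := (hactx b).resolve_left fun e =>
      hb (Subgroup.mem_centralizer_singleton_iff.2 (mul_inv_eq_iff_eq_mul.1 e))
    refine Subgroup.mem_centralizer_singleton_iff.2 (mul_inv_eq_iff_eq_mul.1 ?_)
    have hbx' : b⁻¹ * x * b⁻¹⁻¹ = x * z := (hactx b⁻¹).resolve_left fun e => hb (by
      refine Subgroup.mem_centralizer_singleton_iff.2 ?_
      rw [inv_inv] at e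
      calc b * x = b * (b⁻¹ * x * b) := by rw [e]
        _ = x * b := by group)
    calc a * b⁻¹ * x * (a * b⁻¹)⁻¹ = a * (b⁻¹ * x * b⁻¹⁻¹) * a⁻¹ := by group
      _ = a * x * a⁻¹ * (a * z * a⁻¹) := by rw [hbx', conj_mul]
      _ = x := by rw [hax, hzc a, mul_inv_cancel_right, mul_assoc, ← pow_two, hz2, mul_one]
  have hmove : ∀ a ∈ Q₀, a ∉ Subgroup.zpowers y → a * y * a⁻¹ = z * y := fun a ha haY => by
    rw [← hxz]
    refine conj_eq_mul_involution hG (hyn.conj_mem y (Subgroup.mem_zpowers y) a) ?_ hm2 hm4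
      (Subgroup.mem_centralizer_singleton_iff.1 ha.2) fun e => haY (hcent a e)
    rcases hsq a ha.1 with e | e <;> rw [e]
    · rw [one_mul, mul_one]
    · exact (hzc y).symm
  have h2 : Nat.card Q₀ ≤ 2 * Nat.card ↥(Q₀ ⊓ Subgroup.zpowers y) :=
    card_le_two_mul_card_inf fun a ha b hb haY hbY => hcent _ (by
      have e1 := hmove a ha haY
      have e2 := hmove b hb hbY
      calc a * b⁻¹ * y = a * b⁻¹ * (z * y) * z⁻¹ := by
            rw [← hzc y]; group
        _ = a * b⁻¹ * (b * y * b⁻¹) * z⁻¹ := by rw [e2]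
        _ = a * y * a⁻¹ * (a * b⁻¹ * z⁻¹) := by group
        _ = y * (a * b⁻¹) := by
            rw [e1, ← hzc y, mul_assoc y z, ← hzc (a * b⁻¹ * z⁻¹), inv_mul_cancel_right])
  have h3 : Nat.card ↥(Q₀ ⊓ Subgroup.zpowers y) ≤ 4 := by
    have hcyc : IsCyclic ↥(Q₀ ⊓ Subgroup.zpowers y) := isCyclic_of_injective
      (Subgroup.inclusion (inf_le_right : Q₀ ⊓ Subgroup.zpowers y ≤ _))
      (Subgroup.inclusion_injective _)
    obtain ⟨v, hv⟩ := (Subgroup.isCyclic_iff_exists_zpowers_eq_top _).1 hcyc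
    have hv' : v ∈ Q₀ ⊓ Subgroup.zpowers y := hv ▸ Subgroup.mem_zpowers v
    rw [← hv, Nat.card_zpowers]
    refine Nat.le_of_dvd (by norm_num) (orderOf_dvd_of_pow_eq_one ?_)
    rcases hsq v hv'.1.1 with e | e <;> rw [show (4 : ℕ) = 2 * 2 from rfl, pow_mul, e]
    · exact one_pow 2
    · exact hz2
  omega

open QuaternionGroup in
theorem quaternion_facts :
    (∀ p q : QuaternionGroup 2, p * q = q * p ∨ p * q = a 2 * (q * p)) ∧
    (∀ p : QuaternionGroup 2, p * p = 1 ∨ p * p = a 2) ∧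
    (∀ p : QuaternionGroup 2, p = 1 ∨ p = a 2 ∨ ∃ p', p * p' ≠ p' * p) ∧
    (∀ p : QuaternionGroup 2, p * p = 1 → p = 1 ∨ p = a 2) ∧
    ∀ p p' r : QuaternionGroup 2, p * p' ≠ p' * p →
      r ∈ [1, p, a 2, a 2 * p, p', p * p', a 2 * p', a 2 * (p * p')] :=
  ⟨by decide, by decide, by decide, by decide, by decide⟩

/-- What is used about a quaternion subgroup with central involution `m`. -/
structure QuatPart (R : Subgroup S) (m : S) : Prop where
  m_mem : m ∈ R
  m_ne : m ≠ 1
  m_sq : m ^ 2 = 1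
  m_comm : ∀ p ∈ R, p * m = m * p
  comm : ∀ p ∈ R, ∀ q ∈ R, p * q = q * p ∨ p * q = m * (q * p)
  sq : ∀ p ∈ R, p ^ 2 = 1 ∨ p ^ 2 = m
  inv : ∀ p ∈ R, p ^ 2 = 1 → p = 1 ∨ p = m
  partner : ∀ p ∈ R, p ≠ 1 → p ≠ m → ∃ q ∈ R, p * q ≠ q * p
  gen : ∀ p ∈ R, ∀ q ∈ R, p * q ≠ q * p → ∀ r ∈ R, ∀ g, g * p = p * g → g * q = q * g →
    g * m = m * g → g * r = r * g

omit [Finite S] in
theorem quatPart_of_equiv {R : Subgroup S} (e : R ≃* QuaternionGroup 2) :
    QuatPart R ((e.symm (QuaternionGroup.a 2) : R) : S) := by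
  obtain ⟨h1, h2, h3, h4, h5⟩ := quaternion_facts
  set m : R := e.symm (QuaternionGroup.a 2) with hm
  have hem : e m = QuaternionGroup.a 2 := e.apply_symm_apply _
  have hmz : m * m = 1 := e.injective (by rw [map_mul, hem, map_one]; decide)
  refine ⟨m.2, fun h => ?_, ?_, fun p hp => ?_, fun p hp q hq => ?_, fun p hp => ?_,
    fun p hp hp2 => ?_, fun p hp hp1 hpm => ?_, fun p hp q hq hpq r hr g hgp hgq hgm => ?_⟩
  · have : QuaternionGroup.a (2 : ZMod (2 * 2)) = 1 := by
      rw [← hem, show m = 1 from Subtype.ext h, map_one]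
    exact absurd this (by decide)
  · rw [pow_two]; exact congrArg Subtype.val hmz
  · have hcen : ∀ v : QuaternionGroup 2, v * .a 2 = .a 2 * v := by decide
    have he : (⟨p, hp⟩ : R) * m = m * ⟨p, hp⟩ := e.injective (by
      rw [map_mul, map_mul, hem]
      exact hcen _)
    exact congrArg Subtype.val he
  · rcases h1 (e ⟨p, hp⟩) (e ⟨q, hq⟩) with h | h
    · left
      rw [← map_mul, ← map_mul] at h
      exact congrArg Subtype.val (e.injective h)
    · right
      rw [← hem, ← map_mul, ← map_mul, ← map_mul] at h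
      exact congrArg Subtype.val (e.injective h)
  · rcases h2 (e ⟨p, hp⟩) with h | h
    · left
      rw [← map_mul, ← map_one e] at h
      rw [pow_two]
      exact congrArg Subtype.val (e.injective h)
    · right
      rw [← hem, ← map_mul] at h
      rw [pow_two]
      exact congrArg Subtype.val (e.injective h)
  · rw [pow_two] at hp2
    have hp' : (⟨p, hp⟩ : R) * ⟨p, hp⟩ = 1 := Subtype.ext hp2
    rcases h4 (e ⟨p, hp⟩) (by rw [← map_mul, hp', map_one]) with h | h
    · rw [← map_one e] at h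
      exact Or.inl (congrArg Subtype.val (e.injective h))
    · rw [← hem] at h
      exact Or.inr (congrArg Subtype.val (e.injective h))
  · rcases h3 (e ⟨p, hp⟩) with h | h | ⟨q', hq'⟩
    · rw [← map_one e] at h
      exact absurd (congrArg Subtype.val (e.injective h)) hp1
    · rw [← hem] at h
      exact absurd (congrArg Subtype.val (e.injective h)) hpm
    · refine ⟨e.symm q', (e.symm q').2, fun h => hq' ?_⟩
      have h' : (⟨p, hp⟩ : R) * e.symm q' = e.symm q' * ⟨p, hp⟩ := Subtype.ext h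
      simpa using congrArg e h'
  · have hne : e ⟨p, hp⟩ * e ⟨q, hq⟩ ≠ e ⟨q, hq⟩ * e ⟨p, hp⟩ := fun h => hpq (by
      rw [← map_mul, ← map_mul] at h
      exact congrArg Subtype.val (e.injective h))
    have hlist := h5 (e ⟨p, hp⟩) (e ⟨q, hq⟩) (e ⟨r, hr⟩) hne
    rw [← map_one e, ← hem] at hlist
    simp only [← map_mul, List.mem_cons, List.not_mem_nil, or_false, e.injective.eq_iff] at hlist
    have hg : ∀ k : R, k = 1 ∨ k = ⟨p, hp⟩ ∨ k = m ∨ k = m * ⟨p, hp⟩ ∨ k = ⟨q, hq⟩ ∨
        k = ⟨p, hp⟩ * ⟨q, hq⟩ ∨ k = m * ⟨q, hq⟩ ∨ k = m * (⟨p, hp⟩ * ⟨q, hq⟩) →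
          Commute g (k : S) := by
      have cp : Commute g p := hgp
      have cq : Commute g q := hgq
      have cm : Commute g (m : S) := hgm
      rintro k (rfl | rfl | rfl | rfl | rfl | rfl | rfl | rfl) <;>
        try simp only [Subgroup.coe_mul, OneMemClass.coe_one]
      exacts [Commute.one_right g, cp, cm, cm.mul_right cp, cq, cp.mul_right cq, cm.mul_right cq,
        cm.mul_right (cp.mul_right cq)]
    exact (hg _ hlist).eq

/-- A self-centralising `Q₈ ∗ Q₈` yields a self-centralising elementary subgroup of order eight. -/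
theorem exists_selfEight_of_quaternions (hS : IsPGroup 2 S) {Q Q₁ Q₂ : Subgroup S}
    (e₁ : Q₁ ≃* QuaternionGroup 2) (e₂ : Q₂ ≃* QuaternionGroup 2)
    (hcomm : ∀ a ∈ Q₁, ∀ b ∈ Q₂, a * b = b * a) (hQ : Q₁ ⊔ Q₂ = Q) (hQ32 : Nat.card Q = 32)
    (hC : Subgroup.centralizer (Q : Set S) ≤ Q) : ∃ A : Subgroup S, SelfEight A := by
  have : Fact (Nat.Prime 2) := ⟨Nat.prime_two⟩
  have hR := quatPart_of_equiv e₁
  have hR' := quatPart_of_equiv e₂
  set z := ((e₁.symm (QuaternionGroup.a 2) : Q₁) : S)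
  set z' := ((e₂.symm (QuaternionGroup.a 2) : Q₂) : S)
  have hmemQ : ∀ g ∈ Q, ∃ p ∈ Q₁, ∃ q ∈ Q₂, g = p * q := fun g hg => by
    have hg' : g ∈ Q₁.subtype.range ⊔ Q₂.subtype.range := by
      rw [Subgroup.range_subtype, Subgroup.range_subtype, hQ]; exact hg
    rw [← MonoidHom.noncommCoprod_range Q₁.subtype Q₂.subtype
      fun p q => hcomm p p.2 q q.2] at hg'
    obtain ⟨⟨p, q⟩, rfl⟩ := hg'
    exact ⟨p, p.2, q, q.2, rfl⟩
  have hcen1 : ∀ p ∈ Q₁, (∀ q ∈ Q₁, p * q = q * p) → p = 1 ∨ p = z := fun p hp h => by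
    by_contra hne
    push Not at hne
    obtain ⟨q, hq, hpq⟩ := hR.partner p hp hne.1 hne.2
    exact hpq (h q hq)
  have hcen2 : ∀ p ∈ Q₂, (∀ q ∈ Q₂, p * q = q * p) → p = 1 ∨ p = z' := fun p hp h => by
    by_contra hne
    push Not at hne
    obtain ⟨q, hq, hpq⟩ := hR'.partner p hp hne.1 hne.2
    exact hpq (h q hq)
  -- the two involutions agree
  have hzz : z' = z := by
    by_contra hne
    have hinj : Function.Injective (fun pq : Q₁ × Q₂ => (⟨(pq.1 : S) * pq.2, by
        rw [← hQ]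
        exact mul_mem (Subgroup.mem_sup_left pq.1.2) (Subgroup.mem_sup_right pq.2.2)⟩ : Q)) := by
      rintro ⟨p, q⟩ ⟨p', q'⟩ h
      have h' : (p : S) * q = p' * q' := congrArg Subtype.val h
      have hk : (p' : S)⁻¹ * p = q' * (q : S)⁻¹ := by
        rw [inv_mul_eq_iff_eq_mul, ← mul_assoc, eq_mul_inv_iff_mul_eq]; exact h'
      set k := (p' : S)⁻¹ * p with hkdef
      have hk1 : k ∈ Q₁ := mul_mem (inv_mem p'.2) p.2
      have hk2 : k ∈ Q₂ := hk ▸ mul_mem q'.2 (inv_mem q.2)
      have hk0 : k = 1 := by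
        rcases hcen1 k hk1 fun r hr => (hcomm r hr k hk2).symm with e | e
        · exact e
        rcases hcen2 k hk2 fun r hr => hcomm k hk1 r hr with e' | e'
        · exact e'
        · exact absurd (e'.symm.trans e) hne
      have hp : p = p' := Subtype.ext (inv_mul_eq_one.1 hk0).symm
      have hq : q = q' := Subtype.ext (by
        rw [hk0] at hk; exact (mul_inv_eq_one.1 hk.symm).symm)
      rw [hp, hq]
    have h64 := Nat.card_le_card_of_injective _ hinj
    rw [Nat.card_prod, Nat.card_congr e₁.toEquiv, Nat.card_congr e₂.toEquiv, hQ32,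
      Nat.card_eq_fintype_card, QuaternionGroup.card] at h64
    omega
  rw [hzz] at hR' hcen2
  clear_value z z'
  have h1Q : ∀ p ∈ Q₁, p ∈ Q := fun p hp => hQ ▸ Subgroup.mem_sup_left hp
  have h2Q : ∀ p ∈ Q₂, p ∈ Q := fun p hp => hQ ▸ Subgroup.mem_sup_right hp
  have hzQ : z ∈ Q := h1Q z hR.m_mem
  have hcenQ : ∀ x, (∀ g ∈ Q, x * g = g * x) → x = 1 ∨ x = z := by
    intro x hx
    obtain ⟨p, hp, q, hq, rfl⟩ := hmemQ x (hC (Subgroup.mem_centralizer_iff.2
      fun g hg => (hx g hg).symm))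
    have h2 : z * z = 1 := by rw [← pow_two]; exact hR.m_sq
    have hp' := hcen1 p hp fun r hr => by
      have h : Commute (p * q) r := hx r (h1Q r hr)
      have h' : Commute (p * q * q⁻¹) r :=
        h.mul_left (Commute.inv_left (hcomm r hr q hq).symm)
      rwa [mul_inv_cancel_right] at h'
    have hq' := hcen2 q hq fun r hr => by
      have h : Commute (p * q) r := hx r (h2Q r hr)
      have h' : Commute (p⁻¹ * (p * q)) r :=
        (Commute.inv_left (hcomm p hp r hr : Commute p r)).mul_left h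
      rwa [inv_mul_cancel_left] at h'
    rcases hp' with rfl | rfl <;> rcases hq' with rfl | rfl <;> simp [h2]
  have hz : z ∈ Subgroup.center S := by
    have : Nontrivial S := ⟨_, _, hR.m_ne⟩
    obtain ⟨v, hv, hv1⟩ := (Subgroup.bot_or_exists_ne_one _).resolve_left
      ((Subgroup.nontrivial_iff_ne_bot _).1 hS.center_nontrivial)
    rcases hcenQ v (fun g _ => (Subgroup.mem_center_iff.1 hv g).symm) with e | e
    exacts [absurd e hv1, e ▸ hv]
  have hzc := Subgroup.mem_center_iff.1 hz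
  have hz2 := hR.m_sq
  have hsqQ : ∀ g ∈ Q, g ^ 2 = 1 ∨ g ^ 2 = z := fun g hg => by
    obtain ⟨p, hp, q, hq, rfl⟩ := hmemQ g hg
    rw [Commute.mul_pow (hcomm p hp q hq)]
    rcases hR.sq p hp with e | e <;> rcases hR'.sq q hq with e' | e' <;> rw [e, e'] <;>
      simp [← pow_two, hz2]
  obtain ⟨w, hw2, hw1, hwz, hn⟩ := exists_four_of_large hS hz hR.m_ne hz2 (by omega) hsqQ
  have hconjw := conj_mem_four hz hz2 hw2 hw1 hwz hn
  -- `w` acts on `Q` as an element of `Q`
  have hbad : ∀ v : S, (∀ g ∈ Q, v * g * v⁻¹ = g ∨ v * g * v⁻¹ = g * z) →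
      ∀ q ∈ Q, ∀ g ∈ Q, (v * q) * g * (v * q)⁻¹ = g ∨ (v * q) * g * (v * q)⁻¹ = g * z := by
    intro v hv q hq g hg
    obtain ⟨p, hp, r, hr, rfl⟩ := hmemQ q hq
    obtain ⟨p', hp', r', hr', rfl⟩ := hmemQ g hg
    have hd : (p * r) * (p' * r') * (p * r)⁻¹ = p' * r' ∨
        (p * r) * (p' * r') * (p * r)⁻¹ = p' * r' * z := by
      have hrp : r * p' = p' * r := (hcomm p' hp' r hr).symm
      have e1 : (p * r) * (p' * r') = p * p' * (r * r') := by
        rw [mul_assoc p r, ← mul_assoc r p', hrp]; group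
      have e2 : (p' * r') * (p * r) = p' * p * (r' * r) := by
        rw [mul_assoc p' r', ← mul_assoc r' p, ← hcomm p hp r' hr']; group
      have key : (p * r) * (p' * r') = p' * r' * (p * r) ∨
          (p * r) * (p' * r') = p' * r' * z * (p * r) := by
        have ez : p' * r' * z * (p * r) = z * (p' * p * (r' * r)) := by
          rw [← e2, hzc (p' * r')]; group
        rw [e1, ez, e2]
        rcases hR.comm p hp p' hp' with e | e <;> rcases hR'.comm r hr r' hr' with e' | e' <;>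
          rw [e, e']
        · exact Or.inl rfl
        · exact Or.inr (by rw [← mul_assoc (p' * p) z, hzc (p' * p), mul_assoc])
        · exact Or.inr (by rw [mul_assoc])
        · exact Or.inl (by
            rw [mul_assoc z (p' * p), ← mul_assoc (p' * p) z, hzc (p' * p), mul_assoc z (p' * p),
              ← mul_assoc z z, ← pow_two, hz2, one_mul])
      rcases key with e | e
      · exact Or.inl (mul_inv_eq_iff_eq_mul.2 e)
      · exact Or.inr (mul_inv_eq_iff_eq_mul.2 e)
    have e : v * (p * r) * (p' * r') * (v * (p * r))⁻¹ =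
        v * ((p * r) * (p' * r') * (p * r)⁻¹) * v⁻¹ := by group
    rw [e]
    rcases hd with e' | e' <;> rw [e']
    · exact hv _ hg
    · have hzv : v * z * v⁻¹ = z := by rw [hzc v, mul_inv_cancel_right]
      rw [← conj_mul, hzv]
      rcases hv _ hg with e'' | e'' <;> rw [e'']
      · exact Or.inr rfl
      · left; rw [mul_assoc _ z z, ← pow_two, hz2, mul_one]
  have hwQ : w ∈ Q := by
    have hw : ∀ g ∈ Q, w * g * w⁻¹ = g ∨ w * g * w⁻¹ = g * z := fun g _ => by
      rcases hconjw g with e | e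
      · exact Or.inl (mul_inv_eq_iff_eq_mul.2 (mul_inv_eq_iff_eq_mul.1 e).symm)
      · right
        have e1 : g * w = w * (z * g) := by rw [← mul_assoc]; exact mul_inv_eq_iff_eq_mul.1 e
        have hwz' : z * (g * w) = w * g := by
          rw [e1, ← mul_assoc, ← hzc w, mul_assoc, ← mul_assoc z z, ← pow_two, hz2, one_mul]
        rw [mul_inv_eq_iff_eq_mul, hzc g, mul_assoc]
        exact hwz'.symm
    have hfixone : ∀ v : S, (∀ g ∈ Q, v * g * v⁻¹ = g ∨ v * g * v⁻¹ = g * z) → ∀ p ∈ Q, ∀ p' ∈ Q,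
        p * p' = z * (p' * p) → ∃ q ∈ Q, (v * q) * p * (v * q)⁻¹ = p ∧
          ∀ g, g * p' = p' * g → v * g * v⁻¹ = g → (v * q) * g * (v * q)⁻¹ = g := by
      intro v hv p hp p' hp' hpp
      rcases hv p hp with e | e
      · exact ⟨1, one_mem Q, by rwa [mul_one], fun g _ hg => by rwa [mul_one]⟩
      · refine ⟨p', hp', ?_, fun g hg hvg => ?_⟩
        · have e2 : p' * p * p'⁻¹ = z * p := by
            rw [mul_inv_eq_iff_eq_mul, mul_assoc, hpp, ← mul_assoc z, ← pow_two, hz2, one_mul]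
          calc v * p' * p * (v * p')⁻¹ = v * (p' * p * p'⁻¹) * v⁻¹ := by group
            _ = v * z * v⁻¹ * (v * p * v⁻¹) := by rw [e2, conj_mul]
            _ = p := by
              rw [e, hzc v, mul_inv_cancel_right, ← hzc (p * z), mul_assoc, ← pow_two, hz2, mul_one]
        · calc v * p' * g * (v * p')⁻¹ = v * (p' * g * p'⁻¹) * v⁻¹ := by group
            _ = g := by rw [← hg, mul_inv_cancel_right, hvg]
    -- generators
    obtain ⟨p, hp, p', hp', hpp, hgen1⟩ : ∃ p ∈ Q₁, ∃ p' ∈ Q₁, p * p' ≠ p' * p ∧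
        ∀ r ∈ Q₁, ∀ g, g * p = p * g → g * p' = p' * g → g * r = r * g := by
      obtain ⟨p, hp, hp1, hpm⟩ : ∃ p ∈ Q₁, p ≠ 1 ∧ p ≠ z := by
        by_contra hh
        push Not at hh
        have hle : Q₁ ≤ Subgroup.zpowers z := fun p hp => by
          by_cases h1 : p = 1
          · rw [h1]; exact one_mem _
          · rw [hh p hp h1]; exact Subgroup.mem_zpowers z
        have h8 := (Subgroup.card_le_of_le hle).trans (card_zpowers_le_two hz2)
        rw [Nat.card_congr e₁.toEquiv, Nat.card_eq_fintype_card, QuaternionGroup.card] at h8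
        omega
      obtain ⟨p', hp', h⟩ := hR.partner p hp hp1 hpm
      exact ⟨p, hp, p', hp', h, fun r hr g h1 h2 => hR.gen p hp p' hp' h r hr g h1 h2 (hzc g)⟩
    obtain ⟨q, hq, q', hq', hqq, hgen2⟩ : ∃ p ∈ Q₂, ∃ p' ∈ Q₂, p * p' ≠ p' * p ∧
        ∀ r ∈ Q₂, ∀ g, g * p = p * g → g * p' = p' * g → g * r = r * g := by
      obtain ⟨p, hp, hp1, hpm⟩ : ∃ p ∈ Q₂, p ≠ 1 ∧ p ≠ z := by
        by_contra hh
        push Not at hh
        have hle : Q₂ ≤ Subgroup.zpowers z := fun p hp => by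
          by_cases h1 : p = 1
          · rw [h1]; exact one_mem _
          · rw [hh p hp h1]; exact Subgroup.mem_zpowers z
        have h8 := (Subgroup.card_le_of_le hle).trans (card_zpowers_le_two hz2)
        rw [Nat.card_congr e₂.toEquiv, Nat.card_eq_fintype_card, QuaternionGroup.card] at h8
        omega
      obtain ⟨p', hp', h⟩ := hR'.partner p hp hp1 hpm
      exact ⟨p, hp, p', hp', h, fun r hr g h1 h2 => hR'.gen p hp p' hp' h r hr g h1 h2 (hzc g)⟩
    have hpz : p * p' = z * (p' * p) := (hR.comm p hp p' hp').resolve_left hpp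
    have hqz : q * q' = z * (q' * q) := (hR'.comm q hq q' hq').resolve_left hqq
    have hpz' : p' * p = z * (p * p') := by rw [hpz, ← mul_assoc, ← pow_two, hz2, one_mul]
    have hqz' : q' * q = z * (q * q') := by rw [hqz, ← mul_assoc, ← pow_two, hz2, one_mul]
    obtain ⟨a₁, ha₁, f1, -⟩ := hfixone w hw p (h1Q p hp) p' (h1Q p' hp') hpz
    obtain ⟨a₂, ha₂, f2, k2⟩ := hfixone (w * a₁) (hbad w hw a₁ ha₁) p' (h1Q p' hp') p (h1Q p hp) hpz'
    have f1' := k2 p rfl f1
    have hw2' := hbad _ (hbad w hw a₁ ha₁) a₂ ha₂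
    obtain ⟨a₃, ha₃, f3, k3⟩ := hfixone (w * a₁ * a₂) hw2' q (h2Q q hq) q' (h2Q q' hq') hqz
    have f1'' := k3 p (hcomm p hp q' hq') f1'
    have f2'' := k3 p' (hcomm p' hp' q' hq') f2
    have hw3' := hbad _ hw2' a₃ ha₃
    obtain ⟨a₄, ha₄, f4, k4⟩ :=
      hfixone (w * a₁ * a₂ * a₃) hw3' q' (h2Q q' hq') q (h2Q q hq) hqz'
    have g1 := k4 p (hcomm p hp q hq) f1''
    have g2 := k4 p' (hcomm p' hp' q hq) f2''
    have g3 := k4 q rfl f3
    set v := w * a₁ * a₂ * a₃ * a₄ with hv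
    have c1 : v * p = p * v := mul_inv_eq_iff_eq_mul.1 g1
    have c2 : v * p' = p' * v := mul_inv_eq_iff_eq_mul.1 g2
    have c3 : v * q = q * v := mul_inv_eq_iff_eq_mul.1 g3
    have c4 : v * q' = q' * v := mul_inv_eq_iff_eq_mul.1 f4
    have hvQ : v ∈ Q := by
      refine hC (Subgroup.mem_centralizer_iff.2 fun g hg => ?_)
      obtain ⟨r, hr, r', hr', rfl⟩ := hmemQ g hg
      exact (Commute.mul_right (hgen1 r hr v c1 c2 : Commute v r)
        (hgen2 r' hr' v c3 c4 : Commute v r')).eq.symm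
    have e : w = v * a₄⁻¹ * a₃⁻¹ * a₂⁻¹ * a₁⁻¹ := by rw [hv]; group
    rw [e]
    exact mul_mem (mul_mem (mul_mem (mul_mem hvQ (inv_mem ha₄)) (inv_mem ha₃)) (inv_mem ha₂))
      (inv_mem ha₁)
  -- `w = i j`
  obtain ⟨i, hi, j, hj, hij⟩ := hmemQ w hwQ
  have hw2s : i ^ 2 * j ^ 2 = 1 := by rw [← Commute.mul_pow (hcomm i hi j hj), ← hij, hw2]
  have hine : i ≠ 1 ∧ i ≠ z := by
    have hzi : ∀ {k : S}, k ^ 2 = 1 → j ^ 2 = 1 → (k = 1 ∨ k = z) → w = k * j → False := by
      intro k _ hj2 hk hwk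
      rcases hR'.inv j hj hj2 with rfl | rfl <;> rcases hk with rfl | rfl <;>
        simp [← pow_two, hz2] at hwk <;> first | exact hw1 hwk | exact hwz hwk
    constructor <;> rintro rfl
    · rw [one_pow, one_mul] at hw2s
      exact hzi (one_pow 2) hw2s (Or.inl rfl) hij
    · rw [hz2, one_mul] at hw2s
      exact hzi hz2 hw2s (Or.inr rfl) hij
  have hi2 : i ^ 2 = z := (hR.sq i hi).resolve_left fun e => by
    rcases hR.inv i hi e with e' | e'
    exacts [hine.1 e', hine.2 e']
  have hjne : j ≠ 1 ∧ j ≠ z := by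
    constructor <;> rintro rfl
    · rw [one_pow, mul_one, hi2] at hw2s; exact hR.m_ne hw2s
    · rw [hz2, mul_one, hi2] at hw2s; exact hR.m_ne hw2s
  have hj2 : j ^ 2 = z := (hR'.sq j hj).resolve_left fun e => by
    rcases hR'.inv j hj e with e' | e'
    exacts [hjne.1 e', hjne.2 e']
  obtain ⟨i', hi', hii⟩ := hR.partner i hi hine.1 hine.2
  obtain ⟨j', hj', hjj⟩ := hR'.partner j hj hjne.1 hjne.2
  have hii' : i * i' = z * (i' * i) := (hR.comm i hi i' hi').resolve_left hii
  have hjj' : j * j' = z * (j' * j) := (hR'.comm j hj j' hj').resolve_left hjj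
  have hi'2 : i' ^ 2 = z := (hR.sq i' hi').resolve_left fun e => by
    rcases hR.inv i' hi' e with rfl | rfl
    · simp at hii
    · exact hii (hzc i)
  have hj'2 : j' ^ 2 = z := (hR'.sq j' hj').resolve_left fun e => by
    rcases hR'.inv j' hj' e with rfl | rfl
    · simp at hjj
    · exact hjj (hzc j)
  have hzz1 : z * z = 1 := by rw [← pow_two, hz2]
  have hswap : ∀ a b : S, a * b = z * (b * a) → b * a = z * (a * b) := fun a b e => by
    rw [e, ← mul_assoc, hzz1, one_mul]
  set k := i * i' with hk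
  set l := j * j' with hl
  have hkQ : k ∈ Q₁ := mul_mem hi hi'
  have hlQ : l ∈ Q₂ := mul_mem hj hj'
  have hki : k * i = z * (i * k) := by
    rw [hk, mul_assoc, hswap i i' hii', ← mul_assoc, hzc i, mul_assoc]
  have hki' : k * i' = z * (i' * k) := by
    rw [hk]
    calc i * i' * i' = z * (i' * i) * i' := by rw [← hii']
      _ = _ := by group
  have hlj' : l * j' = z * (j' * l) := by
    rw [hl]
    calc j * j' * j' = z * (j' * j) * j' := by rw [← hjj']
      _ = _ := by group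
  have hlj : l * j = z * (j * l) := by
    rw [hl, mul_assoc, hswap j j' hjj', ← mul_assoc, hzc j, mul_assoc]
  have hk2 : k ^ 2 = z := (hR.sq k hkQ).resolve_left fun e => by
    have hki1 : k ≠ 1 := fun h => by
      rw [h, one_mul, mul_one, eq_comm, mul_eq_right] at hki
      exact hR.m_ne hki
    have hkz : k ≠ z := fun h => by
      rw [h, ← hzc i, eq_comm, mul_eq_right] at hki
      exact hR.m_ne hki
    rcases hR.inv k hkQ e with e' | e'
    exacts [hki1 e', hkz e']
  have hl2 : l ^ 2 = z := (hR'.sq l hlQ).resolve_left fun e => by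
    have hlj1 : l ≠ 1 := fun h => by
      rw [h, one_mul, mul_one, eq_comm, mul_eq_right] at hlj'
      exact hR.m_ne hlj'
    have hlz : l ≠ z := fun h => by
      rw [h, ← hzc j', eq_comm, mul_eq_right] at hlj'
      exact hR.m_ne hlj'
    rcases hR'.inv l hlQ e with e' | e'
    exacts [hlj1 e', hlz e']
  -- products
  have hprod : ∀ {p p' : S}, p ∈ Q₁ → p' ∈ Q₁ → ∀ {q q' : S}, q ∈ Q₂ → q' ∈ Q₂ →
      (p * q) * (p' * q') = p * p' * (q * q') := fun {p p'} hp hp' {q q'} hq hq' => by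
    rw [mul_assoc p q, ← mul_assoc q p', ← hcomm p' hp' q hq]; group
  set a := i' * j with ha
  set y := k * j' with hy
  set g₀ := k * l with hg₀
  have hcross : ∀ {p p' : S}, p ∈ Q₁ → p' ∈ Q₁ → ∀ {q q' : S}, q ∈ Q₂ → q' ∈ Q₂ →
      p * p' = z * (p' * p) → q * q' = z * (q' * q) →
      (p * q) * (p' * q') = (p' * q') * (p * q) := fun {p p'} hp hp' {q q'} hq hq' e e' => by
    calc (p * q) * (p' * q') = z * (p' * p) * (z * (q' * q)) := by rw [hprod hp hp' hq hq', e, e']
      _ = (p' * p) * z * z * (q' * q) := by rw [hzc (p' * p)]; group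
      _ = (p' * p) * (q' * q) := by rw [mul_assoc (p' * p) z z, hzz1, mul_one]
      _ = _ := (hprod hp' hp hq' hq).symm
  have haw : a * w = z * (w * a) := by
    rw [ha, hij, hprod hi' hi hj hj, hprod hi hi' hj hj, hswap i i' hii', mul_assoc]
  have hyw : y * w = w * y := by
    rw [hy, hij]; exact hcross hkQ hi hj' hj hki (hswap j j' hjj')
  have hya : y * a = a * y := by
    rw [hy, ha]; exact hcross hkQ hi' hj' hj hki' (hswap j j' hjj')
  have hgw : g₀ * w = w * g₀ := by
    rw [hg₀, hij]; exact hcross hkQ hi hlQ hj hki hlj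
  have hga : g₀ * a = a * g₀ := by
    rw [hg₀, ha]; exact hcross hkQ hi' hlQ hj hki' hlj
  have hgy : g₀ * y = z * (y * g₀) := by
    rw [hg₀, hy, hprod hkQ hkQ hlQ hj', hprod hkQ hkQ hj' hlQ, hlj', ← mul_assoc (k * k), hzc,
      mul_assoc]
  have ha2 : a ^ 2 = 1 := by rw [ha, Commute.mul_pow (hcomm i' hi' j hj), hi'2, hj2, hzz1]
  have hy2 : y ^ 2 = 1 := by rw [hy, Commute.mul_pow (hcomm k hkQ j' hj'), hk2, hj'2, hzz1]
  have hg2 : g₀ ^ 2 = 1 := by rw [hg₀, Commute.mul_pow (hcomm k hkQ l hlQ), hk2, hl2, hzz1]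
  have haQ : a ∈ Q := mul_mem (h1Q _ hi') (h2Q _ hj)
  have hyQ : y ∈ Q := mul_mem (h1Q _ hkQ) (h2Q _ hj')
  -- these elements generate `Q`
  have hgenall : ∀ x, x * a = a * x → x * w = w * x → x * y = y * x → x * g₀ = g₀ * x →
      x = 1 ∨ x = z := by
    intro x h1 h2 h3 h4
    have c1 : Commute x a := h1
    have c2 : Commute x w := h2
    have c3 : Commute x y := h3
    have c4 : Commute x g₀ := h4
    have cz : Commute x z := hzc x
    have ck : Commute x k := by
      have e : k = w * a * z := by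
        rw [ha, hij, hprod hi hi' hj hj, ← pow_two j, hj2, hk, mul_assoc, hzz1, mul_one]
      rw [e]; exact (c2.mul_right c1).mul_right cz
    have cj' : Commute x j' := by
      have e : j' = k⁻¹ * y := by rw [hy]; group
      rw [e]; exact ck.inv_right.mul_right c3
    have cl : Commute x l := by
      have e : l = k⁻¹ * g₀ := by rw [hg₀]; group
      rw [e]; exact ck.inv_right.mul_right c4
    have cj : Commute x j := by
      have e : j = l * j'⁻¹ := by rw [hl]; group
      rw [e]; exact cl.mul_right cj'.inv_right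
    have ci : Commute x i := by
      have e : i = w * j⁻¹ := by rw [hij]; group
      rw [e]; exact c2.mul_right cj.inv_right
    have ci' : Commute x i' := by
      have e : i' = i⁻¹ * k := by rw [hk]; group
      rw [e]; exact ci.inv_right.mul_right ck
    refine hcenQ x fun g hg => ?_
    obtain ⟨r, hr, r', hr', rfl⟩ := hmemQ g hg
    exact (Commute.mul_right (hR.gen i hi i' hi' hii r hr x ci.eq ci'.eq cz.eq : Commute x r)
      (hR'.gen j hj j' hj' hjj r' hr' x cj.eq cj'.eq cz.eq : Commute x r')).eq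
  -- the elementary subgroup
  have hyne : y ≠ 1 := fun h => by
    rw [h, mul_one, one_mul, eq_comm, mul_eq_right] at hgy
    exact hR.m_ne hgy
  have hyz : y ≠ z := fun h => by
    rw [h, hzc g₀, eq_comm, mul_eq_right] at hgy
    exact hR.m_ne hgy
  have hzy : Commute z y := (hzc y).symm
  set B := Subgroup.closure ({z, y} : Set S) with hB
  have hBmem : ∀ b ∈ B, b ^ 2 = 1 ∧ a * b = b * a ∧ b * w = w * b := fun b hb => by
    rcases (mem_closure_pair hz2 hy2 hzy).1 hb with rfl | rfl | rfl | rfl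
    · exact ⟨one_pow 2, by simp, by simp⟩
    · exact ⟨hz2, hzc a, (hzc w).symm⟩
    · exact ⟨hy2, hya.symm, hyw⟩
    · exact ⟨by rw [hzy.symm.mul_pow, hy2, hz2, one_mul],
        (Commute.mul_right (hya.symm : Commute a y) (hzc a)).eq,
        (Commute.mul_left (hyw : Commute y w) (hzc w).symm).eq⟩
  have haB : a ∉ B := fun h => by
    have := (hBmem a h).2.2
    rw [haw, mul_eq_right] at this
    exact hR.m_ne this
  refine ⟨_, selfEight_sup (card_closure_pair hz2 hy2 hzy hR.m_ne hyne hyz)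
    (fun b hb => (hBmem b hb).1) ha2 haB (fun b hb => (hBmem b hb).2.1) fun x hxa hxB => ?_⟩
  -- elements commuting with `a`, `y` and `w`
  have key : ∀ x, x * a = a * x → x * y = y * x → x * w = w * x → x ∈ B := by
    intro x hxa hxy hxw
    set M := Subgroup.centralizer ({a} : Set S) ⊓ Subgroup.centralizer ({y} : Set S) ⊓
      Subgroup.centralizer ({w} : Set S) with hM
    have hmem : ∀ {g : S}, g ∈ M ↔ g * a = a * g ∧ g * y = y * g ∧ g * w = w * g := fun {g} => by
      simp only [hM, Subgroup.mem_inf, Subgroup.mem_centralizer_singleton_iff, and_assoc]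
    have hgyc : g₀ * y * g₀⁻¹ = y * z := by
      rw [mul_inv_eq_iff_eq_mul, hgy, ← mul_assoc, ← hzc y]
    have hinv : ∀ g ∈ M, conjHom g₀ g ∈ M := fun g hg => by
      obtain ⟨h1, h2, h3⟩ := hmem.1 hg
      have ca : Commute g₀ a := hga
      have cw : Commute g₀ w := hgw
      have hyz' : y = g₀ * (y * z) * g₀⁻¹ := by
        rw [← conj_mul, hgyc, hzc g₀, mul_inv_cancel_right, mul_assoc, hzz1, mul_one]
      refine hmem.2 ⟨((ca.mul_left h1).mul_left ca.inv_left).eq, ?_,
        ((cw.mul_left h3).mul_left cw.inv_left).eq⟩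
      have hgz : Commute g (y * z) := Commute.mul_right (h2 : Commute g y) (hzc g)
      show g₀ * g * g₀⁻¹ * y = y * (g₀ * g * g₀⁻¹)
      calc g₀ * g * g₀⁻¹ * y = g₀ * (g * (y * z)) * g₀⁻¹ := by
            conv_lhs => rw [hyz']
            group
        _ = g₀ * ((y * z) * g) * g₀⁻¹ := by rw [hgz.eq]
        _ = y * (g₀ * g * g₀⁻¹) := by
            conv_rhs => rw [hyz']
            group
    have hzM : z ∈ M := hmem.2 ⟨(hzc a).symm, (hzc y).symm, (hzc w).symm⟩
    have hyM : y ∈ M := hmem.2 ⟨hya, rfl, hyw⟩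
    set τ := subHom (conjHom g₀) M hinv with hτ
    have hzy' : Commute (⟨z, hzM⟩ : M) ⟨y, hyM⟩ := Subtype.ext (hzc y).symm
    have hzM2 : (⟨z, hzM⟩ : M) ^ 2 = 1 := Subtype.ext hz2
    have hyM2 : (⟨y, hyM⟩ : M) ^ 2 = 1 := Subtype.ext hy2
    set N := Subgroup.closure ({⟨z, hzM⟩, ⟨y, hyM⟩} : Set M) with hN
    have hNn : N.Normal := closure_pair_normal
      (Subgroup.mem_center_iff.2 fun d => Subtype.ext (hzc d))
      (Subgroup.mem_center_iff.2 fun d => Subtype.ext (hmem.1 d.2).2.1)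
    have hτz : τ ⟨z, hzM⟩ = ⟨z, hzM⟩ := Subtype.ext (by
      show g₀ * z * g₀⁻¹ = z
      rw [hzc g₀, mul_inv_cancel_right])
    have hτy : τ ⟨y, hyM⟩ = ⟨y, hyM⟩ * ⟨z, hzM⟩ := Subtype.ext hgyc
    have hNτ : ∀ d ∈ N, τ d ∈ N := fun d hd => by
      have h1 := Subgroup.subset_closure (k := ({⟨z, hzM⟩, ⟨y, hyM⟩} : Set M)) (Or.inl rfl)
      have h2 := Subgroup.subset_closure (k := ({⟨z, hzM⟩, ⟨y, hyM⟩} : Set M)) (Or.inr rfl)
      rcases (mem_closure_pair hzM2 hyM2 hzy').1 hd with rfl | rfl | rfl | rfl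
      · rw [map_one]; exact one_mem _
      · rw [hτz]; exact h1
      · rw [hτy]; exact mul_mem h2 h1
      · rw [map_mul, hτy, hτz]; exact mul_mem (mul_mem h2 h1) h1
    have hτi := involutive_subHom (involutive_conjHom hg2) hinv
    have hfix : Nat.card (fixSub τ) ≤ 2 := by
      refine (Subgroup.card_le_of_le (K := Subgroup.zpowers (⟨z, hzM⟩ : M)) fun d hd => ?_).trans
        (card_zpowers_le_two hzM2)
      obtain ⟨h1, h2, h3⟩ := hmem.1 d.2
      have h4 : g₀ * (d : S) = d * g₀ :=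
        mul_inv_eq_iff_eq_mul.1 (congrArg Subtype.val (mem_fixSub.1 hd))
      rcases hgenall d h1 h3 h2 h4.symm with e | e
      · rw [show d = 1 from Subtype.ext e]; exact one_mem _
      · rw [show d = ⟨z, hzM⟩ from Subtype.ext e]; exact Subgroup.mem_zpowers _
    have hone : Nat.card (fixSub (quotHom τ N hNτ)) ≤ 1 := by
      have h := card_fixSub_quotHom_mul_le hτi N hNτ (fixSub τ) fun d hd e => by
        refine fixed_of_inverted_of_sq e ?_
        rcases (mem_closure_pair hzM2 hyM2 hzy').1 hd with rfl | rfl | rfl | rfl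
        · exact one_pow 2
        · exact hzM2
        · exact hyM2
        · rw [hzy'.symm.mul_pow, hzM2, hyM2, one_mul]
      have hN4 : Nat.card N = 4 := card_closure_pair hzM2 hyM2 hzy'
        (fun h => hR.m_ne (congrArg Subtype.val h)) (fun h => hyne (congrArg Subtype.val h))
        (fun h => hyz (congrArg Subtype.val h))
      rw [hN4] at h
      exact Nat.le_of_mul_le_mul_right
        (h.trans ((Nat.mul_le_mul hfix hfix).trans (by norm_num : 2 * 2 ≤ 1 * 4))) (by norm_num)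
    rw [mem_closure_pair hz2 hy2 hzy]
    rcases (mem_closure_pair hzM2 hyM2 hzy').1
      (mem_of_quot_fix_le_one (hS.to_subgroup M) hτi hone ⟨x, hmem.2 ⟨hxa, hxy, hxw⟩⟩) with
      e | e | e | e
    · exact Or.inl (congrArg Subtype.val e)
    · exact Or.inr (Or.inl (congrArg Subtype.val e))
    · exact Or.inr (Or.inr (Or.inl (congrArg Subtype.val e)))
    · exact Or.inr (Or.inr (Or.inr (congrArg Subtype.val e)))
  have hyB : y ∈ B := Subgroup.subset_closure (Or.inr rfl)
  have hxy := hxB y hyB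
  have haA : a ∈ B ⊔ Subgroup.zpowers a := Subgroup.mem_sup_right (Subgroup.mem_zpowers a)
  rcases hconjw x with e | e
  · exact Subgroup.mem_sup_left (key x hxa hxy (mul_inv_eq_iff_eq_mul.1 e))
  · have hxw : x * a * w = w * (x * a) := by
      have e' : x * w = w * z * x := mul_inv_eq_iff_eq_mul.1 e
      calc x * a * w = x * (z * (w * a)) := by rw [mul_assoc, haw]
        _ = (x * z) * (w * a) := by group
        _ = z * (x * w) * a := by rw [hzc x]; group
        _ = z * (w * z) * x * a := by rw [e']; group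
        _ = w * (x * a) := by
          rw [hzc w, ← mul_assoc z z w, hzz1, one_mul, mul_assoc]
    have hxa' : x * a * a = a * (x * a) := by
      rw [← mul_assoc a x, ← hxa]
    have hxay : x * a * y = y * (x * a) :=
      ((Commute.mul_left (hxy : Commute x y) (hya.symm : Commute a y))).eq
    have := mul_mem (Subgroup.mem_sup_left (T := Subgroup.zpowers a) (key _ hxa' hxay hxw))
      (inv_mem haA)
    simpa using this

end Quaternion

end CfsgLib.SectRank
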